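import Mathlib
import Cfsg.Agent.Lib.Helper75.LW.Defs

/-!
# S0747 (k-transitive, `4 ≤ k < n` ⟹ some `(k+1)`-set carries all even permutations):
interface of the team project "KALT" (helper82)

Induction on the degree.  If only the identity fixes `k+1` points: package [BASE].  Otherwise take
a prime `p` and a `p`-subgroup `Q ≠ 1` of `G` of maximal order among the `p`-subgroups fixing at
least `k+1` points; then `G ∩ N(Q)` is `k`-transitive on `Fix(Q)` ([WITT] if `Q` is a Sylow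
subgroup of a `k`-point stabiliser, [T2X] + [T2ORB] + [CONN] otherwise) and induction applies to
the group induced on `Fix(Q)` ([IND]).
-/

set_option autoImplicit false

namespace Cfsg.Agent.Lib.Helper82.S0747

open Equiv Cfsg.Agent.Lib.Helper75.LW

universe u

section defs

variable {α : Type u}

/-- The conclusion of S0747. -/
def Concl [Fintype α] [DecidableEq α] (G : Subgroup (Perm α)) (k : ℕ) : Prop :=
  ∃ Δ : Finset α, Δ.card = k + 1 ∧ ∀ σ : Perm ↥Δ, σ ∈ alternatingGroup ↥Δ →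
    ∃ g ∈ G, ∀ x : ↥Δ, g (x : α) = σ x

/-- The common fixed points of `Q`. -/
def fixS (Q : Subgroup (Perm α)) : Set α := {a | ∀ q ∈ Q, q a = a}

theorem mem_fixS {Q : Subgroup (Perm α)} {a : α} : a ∈ fixS Q ↔ ∀ q ∈ Q, q a = a := Iff.rfl

/-- The elements of `G` fixing every entry of the tuple `x`. -/
def stabT (G : Subgroup (Perm α)) {k : ℕ} (x : Fin k → α) : Subgroup (Perm α) where
  carrier := {g | g ∈ G ∧ ∀ i, g (x i) = x i}
  mul_mem' := by
    rintro g h ⟨hg, hg'⟩ ⟨hh, hh'⟩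
    refine ⟨G.mul_mem hg hh, fun i => ?_⟩
    rw [Equiv.Perm.mul_apply, hh' i, hg' i]
  one_mem' := ⟨G.one_mem, fun _ => rfl⟩
  inv_mem' := by
    rintro g ⟨hg, hg'⟩
    refine ⟨G.inv_mem hg, fun i => ?_⟩
    rw [Equiv.Perm.inv_eq_iff_eq]
    exact (hg' i).symm

theorem mem_stabT {G : Subgroup (Perm α)} {k : ℕ} {x : Fin k → α} {g : Perm α} :
    g ∈ stabT G x ↔ g ∈ G ∧ ∀ i, g (x i) = x i := Iff.rfl

/-- `G ∩ N(Q)`. -/
def NQ (G Q : Subgroup (Perm α)) : Subgroup (Perm α) :=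
  G ⊓ Subgroup.normalizer (Q : Set (Perm α))

/-- `Q` is a `p`-subgroup of `G` of maximal order among those fixing at least `k+1` points. -/
def IsMaxFix (G : Subgroup (Perm α)) (k p : ℕ) (Q : Subgroup (Perm α)) : Prop :=
  Q ≤ G ∧ IsPGroup p Q ∧ k + 1 ≤ (fixS Q).ncard ∧
    ∀ Q' : Subgroup (Perm α), Q' ≤ G → IsPGroup p Q' → k + 1 ≤ (fixS Q').ncard →
      Nat.card Q' ≤ Nat.card Q

/-- `M` carries every injective `k`-tuple of points of `X` to every other one. -/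
def TransOn (M : Subgroup (Perm α)) (X : Set α) (k : ℕ) : Prop :=
  ∀ x y : Fin k ↪ α, (∀ i, x i ∈ X) → (∀ i, y i ∈ X) → ∃ g ∈ M, ∀ i, g (x i) = y i

/-- `t` fixes the tuple `x`, has `p`-power order and moves every point of `X` outside `x`. -/
def IsMover (M : Subgroup (Perm α)) (X : Set α) (p : ℕ) {k : ℕ} (x : Fin k → α) : Prop :=
  ∃ t ∈ M, (∀ i, t (x i) = x i) ∧ (∃ n : ℕ, t ^ p ^ n = 1) ∧
    ∀ z ∈ X, (∀ i, z ≠ x i) → t z ≠ z

end defs

/-! ## Packages -/

/-- [BASE] only the identity fixes `k+1` points (sharply `k`-transitive, or the `k`-point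
stabiliser is semiregular outside): helper75's (S1)-(S3). -/
def PkgBase : Prop :=
  ∀ (α : Type u) [Fintype α] [DecidableEq α] (G : Subgroup (Perm α)) (k : ℕ),
    4 ≤ k → k < Fintype.card α → HT G k → Triv G (k + 1) → Concl G k

/-- [EXQ] existence of a maximal `Q ≠ 1`. -/
def PkgExQ : Prop :=
  ∀ (α : Type u) [Fintype α] [DecidableEq α] (G : Subgroup (Perm α)) (k : ℕ),
    ¬ Triv G (k + 1) →
      ∃ (p : ℕ) (_ : Fact p.Prime) (Q : Subgroup (Perm α)), IsMaxFix G k p Q ∧ Q ≠ ⊥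

/-- [WITT] `Q` a maximal `p`-subgroup of the stabiliser of the tuple `y` (Witt's lemma). -/
def PkgWitt : Prop :=
  ∀ (α : Type u) [Fintype α] [DecidableEq α] (G : Subgroup (Perm α)) (k p : ℕ) [Fact p.Prime]
    (Q : Subgroup (Perm α)), HT G k → Q ≤ G → IsPGroup p Q →
    ∀ x y : Fin k ↪ α, (∀ i, x i ∈ fixS Q) → (∀ i, y i ∈ fixS Q) →
      (∀ P' : Subgroup (Perm α), IsPGroup p P' → Q ≤ P' → P' ≤ stabT G y → P' = Q) →
      ∃ g ∈ NQ G Q, ∀ i, g (x i) = y i

/-- [T2X] if the stabiliser of the tuple `x` of `Fix(Q)` has a `p`-subgroup larger than `Q`,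
then some `p`-element of `G ∩ N(Q)` fixes `x` and moves every other point of `Fix(Q)`. -/
def PkgT2X : Prop :=
  ∀ (α : Type u) [Fintype α] [DecidableEq α] (G : Subgroup (Perm α)) (k p : ℕ) [Fact p.Prime]
    (Q : Subgroup (Perm α)), IsMaxFix G k p Q →
    ∀ x : Fin k ↪ α, (∀ i, x i ∈ fixS Q) →
      (∃ P1 : Subgroup (Perm α), IsPGroup p P1 ∧ P1 ≤ stabT G x ∧ Nat.card Q < Nat.card P1) →
      IsMover (NQ G Q) (fixS Q) p x

/-- [T2ORB] the orbit count modulo `p`. -/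
def PkgT2Orb : Prop :=
  ∀ (α : Type u) [Fintype α] [DecidableEq α] (M : Subgroup (Perm α)) (X : Set α) (k p : ℕ)
    [Fact p.Prime], (∀ g ∈ M, ∀ a ∈ X, g a ∈ X) →
    ∀ x y : Fin k ↪ α, (∀ i, x i ∈ X) → (∀ i, y i ∈ X) →
      ∀ i0 : Fin k, (∀ i, i ≠ i0 → x i = y i) →
      IsMover M X p x → IsMover M X p y → ∃ g ∈ M, ∀ i, g (x i) = y i

/-- [CONN] changing one coordinate at a time suffices when there is a spare point. -/
def PkgConn : Prop :=
  ∀ (α : Type u) [Fintype α] [DecidableEq α] (M : Subgroup (Perm α)) (X : Set α) (k : ℕ),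
    k + 1 ≤ X.ncard →
    (∀ x y : Fin k ↪ α, (∀ i, x i ∈ X) → (∀ i, y i ∈ X) →
      ∀ i0 : Fin k, (∀ i, i ≠ i0 → x i = y i) → ∃ g ∈ M, ∀ i, g (x i) = y i) →
    TransOn M X k

/-- [IND] the induction step: pass to the group induced by `G ∩ N(Q)` on `Fix(Q)`. -/
def PkgInd : Prop :=
  ∀ (α : Type u) [Fintype α] [DecidableEq α] (G : Subgroup (Perm α)) (k : ℕ)
    (Q : Subgroup (Perm α)), Q ≠ ⊥ → k + 1 ≤ (fixS Q).ncard →
    TransOn (NQ G Q) (fixS Q) k →
    (∀ (β : Type u) [Fintype β] [DecidableEq β] (H : Subgroup (Perm β)),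
      Fintype.card β < Fintype.card α → k < Fintype.card β → HT H k → Concl H k) →
    Concl G k

end Cfsg.Agent.Lib.Helper82.S0747
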